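import Cfsg.Agent.H4.FrobCount2
import Cfsg.Agent.H4.SubCount2
import Cfsg.Agent.H4.Higman
import Cfsg.Agent.H6.Burnside

/-! Numbers of elements of a given order. -/

set_option autoImplicit false
set_option linter.unusedSectionVars false
set_option linter.unusedVariables false

namespace Cfsg.Agent.H4

open Cfsg Subgroup

/-- The number of elements of order `m`. -/
noncomputable abbrev so (G : Type*) [Group G] (m : ℕ) : ℕ := Nat.card {g : G // orderOf g = m}

variable {G : Type*} [Group G] [Finite G]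

omit [Finite G] in
theorem so_one : so G 1 = 1 := by
  rw [Nat.card_eq_one_iff_unique]
  exact ⟨⟨fun a b => Subtype.ext ((orderOf_eq_one_iff.1 a.2).trans (orderOf_eq_one_iff.1 b.2).symm)⟩,
    ⟨⟨1, orderOf_one⟩⟩⟩

theorem so_ne_zero_iff {m : ℕ} : so G m ≠ 0 ↔ ∃ g : G, orderOf g = m := by
  rw [Nat.card_ne_zero]
  exact ⟨fun ⟨⟨g, hg⟩, _⟩ => ⟨g, hg⟩, fun ⟨g, hg⟩ => ⟨⟨⟨g, hg⟩⟩, inferInstance⟩⟩

theorem so_ne_zero_of_prime {p : ℕ} (hp : p.Prime) (h : p ∣ Nat.card G) : so G p ≠ 0 := by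
  have := Fact.mk hp
  exact so_ne_zero_iff.2 (exists_prime_orderOf_dvd_card' p h)

theorem so_eq_zero_of_dvd {m n : ℕ} (h : so G m = 0) (hd : m ∣ n) : so G n = 0 := by
  by_contra hn
  obtain ⟨g, rfl⟩ := so_ne_zero_iff.1 hn
  obtain ⟨k, hk⟩ := H9.exists_pow_orderOf_eq hd
  exact so_ne_zero_iff.2 ⟨_, hk⟩ h

theorem totient_dvd_so (m : ℕ) : m.totient ∣ so G m := ⟨_, card_orderOf_eq_totient_mul⟩

theorem two_dvd_so {m : ℕ} (hm : 2 < m) : 2 ∣ so G m :=
  (Nat.totient_even hm).two_dvd.trans (totient_dvd_so m)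

theorem prime_dvd_so_sq {p : ℕ} (hp : p.Prime) : p ∣ so G (p ^ 2) := by
  refine dvd_trans ?_ (totient_dvd_so _)
  rw [Nat.totient_prime_pow hp two_pos]
  exact Dvd.dvd.mul_right (by simp) _

theorem four_dvd_so_mul {m n : ℕ} (hm : 2 < m) (hn : 2 < n) (h : m.Coprime n) :
    4 ∣ so G (m * n) := by
  refine dvd_trans ?_ (totient_dvd_so _)
  rw [Nat.totient_mul h]
  exact Nat.mul_dvd_mul (Nat.totient_even hm).two_dvd (Nat.totient_even hn).two_dvd

theorem dvd_so_add {p m : ℕ} (hp : p.Prime) (hd : p ∣ Nat.card G) (hm : p.Coprime m) :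
    p ∣ so G m + so G (p * m) := by
  have h1 := frobenius_dvd_card (G := G) (n := p ^ (0 + 1)) hd (by simp)
    (C := {y : G | orderOf y = m}) (fun g x hx => (orderOf_conj' g x).trans hx)
  rw [card_pow_pow_succ hp hm] at h1
  simpa using h1

theorem dvd_one_add_so {p : ℕ} (hp : p.Prime) (hd : p ∣ Nat.card G) : p ∣ 1 + so G p := by
  have := dvd_so_add hp hd (Nat.coprime_one_right p)
  rwa [so_one, mul_one] at this

theorem four_dvd_add_so (hd : 4 ∣ Nat.card G) : 4 ∣ 1 + so G 2 + so G 4 := by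
  have h1 := frobenius_dvd_card (G := G) (n := 2 ^ (0 + 1 + 1)) hd (by simp)
    (C := {y : G | orderOf y = 1}) (fun g x hx => (orderOf_conj' g x).trans hx)
  rw [card_pow_pow_succ Nat.prime_two (Nat.coprime_one_right 2),
    card_pow_pow_succ Nat.prime_two (Nat.coprime_one_right 2)] at h1
  have e : Nat.card {x : G // x ^ 2 ^ 0 ∈ {y : G | orderOf y = 1}} = 1 := by
    simp only [pow_zero, pow_one]; exact so_one
  rw [e] at h1
  exact h1

theorem pow_eq_one_of_so_sq {p k : ℕ} (hp : p.Prime) (h : so G (p ^ 2) = 0) {x : G}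
    (hx : x ^ p ^ k = 1) : x ^ p = 1 := by
  obtain ⟨j, -, hj⟩ := (Nat.dvd_prime_pow hp).1 (orderOf_dvd_of_pow_eq_one hx)
  rw [← orderOf_dvd_iff_pow_eq_one, hj]
  have : ¬ 2 ≤ j := fun h2 => so_ne_zero_iff.2 ⟨x, hj⟩ (so_eq_zero_of_dvd h (pow_dvd_pow p h2))
  calc p ^ j ∣ p ^ 1 := pow_dvd_pow p (by omega)
    _ = p := pow_one p

theorem pow_dvd_one_add_so {p k : ℕ} (hp : p.Prime) (h : so G (p ^ 2) = 0)
    (hd : p ^ k ∣ Nat.card G) : p ^ k ∣ 1 + so G p := by
  have h1 := frobenius_dvd_card_pow_eq_one (G := G) hd (pow_dvd_pow p (Nat.le_succ k))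
  have e : Nat.card {x : G // x ^ p ^ (k + 1) = 1} = Nat.card {x : G // x ^ p = 1} :=
    card_congr_prop fun x => ⟨pow_eq_one_of_so_sq hp h, fun hx => by
      rw [pow_succ', pow_mul, hx, one_pow]⟩
  rw [e, card_pow_prime_eq_one hp] at h1
  convert h1 using 2
  rw [so, card_orderOf_eq_totient_mul, Nat.totient_prime hp]
  congr 1
  have := Fact.mk hp
  exact card_congr_prop fun C => ⟨fun h => h.2, fun h => ⟨isCyclic_of_prime_card h, h⟩⟩

theorem sum_so_le (s : Finset ℕ) : ∑ d ∈ s, so G d ≤ Nat.card G := by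
  classical
  have := Fintype.ofFinite G
  have e : ∀ d, so G d = (Finset.univ.filter fun g : G => orderOf g = d).card := fun d => by
    rw [so, Nat.card_eq_fintype_card, Fintype.card_subtype]
  simp only [e]
  rw [Finset.sum_card_fiberwise_eq_card_filter, Nat.card_eq_fintype_card]
  exact Finset.card_filter_le _ _

theorem two_le_so_of_odd_prime {p : ℕ} (hp : p.Prime) (hp2 : p ≠ 2) (h : p ∣ Nat.card G) :
    2 ≤ so G p :=
  Nat.le_of_dvd (Nat.pos_of_ne_zero (so_ne_zero_of_prime hp h))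
    (two_dvd_so (lt_of_le_of_ne hp.two_le hp2.symm))

/-- Arithmetic helper: an odd prime does not divide both `1 + n` and `n` or `2 n`. -/
theorem false_of_dvd_one_add {p n c : ℕ} (hp : p.Prime) (hp2 : p ≠ 2) (h1 : p ∣ 1 + n)
    (h2 : p ∣ n + c) (hc : c = 0 ∨ c = n) : False := by
  have h3 : p ∣ n := by
    rcases hc with rfl | rfl
    · simpa using h2
    · rw [← two_mul] at h2
      exact ((Nat.Prime.dvd_mul hp).1 h2).resolve_left
        fun h => hp2 ((Nat.prime_dvd_prime_iff_eq hp Nat.prime_two).1 h)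
  exact hp.one_lt.ne' (Nat.dvd_one.1 ((Nat.dvd_add_left h3).1 h1))

/-- All orders at least three occur `0`, `a` or `b` times. -/
def Vals (G : Type*) [Group G] (a b : ℕ) : Prop :=
  ∀ m, 2 < m → so G m = 0 ∨ so G m = a ∨ so G m = b

omit [Finite G] in
theorem Vals.symm {a b : ℕ} (h : Vals G a b) : Vals G b a := fun m hm => by
  have := h m hm; tauto

theorem Vals.prime {a b p : ℕ} (h : Vals G a b) (hp : p.Prime) (hp2 : p ≠ 2)
    (hd : p ∣ Nat.card G) : so G p = a ∨ so G p = b :=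
  (h p (lt_of_le_of_ne hp.two_le hp2.symm)).resolve_left (so_ne_zero_of_prime hp hd)

theorem two_lt_mul {p q : ℕ} (hp : p.Prime) (hq : q.Prime) : 2 < p * q := by
  have := hp.two_le; have := hq.two_le; nlinarith

/-- Two odd primes with the same number of elements. -/
theorem Vals.same {a b p q : ℕ} (h : Vals G a b) (hp : p.Prime) (hp2 : p ≠ 2) (hq : q.Prime)
    (hpq : p ≠ q) (hpd : p ∣ Nat.card G) (ha : so G p = a) (hb : so G q = a) :
    so G (p * q) = b ∧ p ∣ 1 + a ∧ p ∣ a + b := by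
  have h1 := dvd_one_add_so hp hpd
  have h2 := dvd_so_add hp hpd ((Nat.coprime_primes hp hq).2 hpq)
  rw [ha] at h1
  rw [hb] at h2
  have : so G (p * q) = b := by
    by_contra hc
    exact false_of_dvd_one_add hp hp2 h1 h2 (by have := h _ (two_lt_mul hp hq); tauto)
  exact ⟨this, h1, this ▸ h2⟩

theorem Vals.so_sq {a b p : ℕ} (h : Vals G a b) (hp : p.Prime) (h1 : p ∣ 1 + a) (h2 : p ∣ a + b) :
    so G (p ^ 2) = 0 := by
  have h3 := prime_dvd_so_sq (G := G) hp
  have ha : ¬ p ∣ a := fun h3 => hp.one_lt.ne' (Nat.dvd_one.1 ((Nat.dvd_add_left h3).1 h1))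
  rcases h (p ^ 2) (by rw [pow_two]; exact two_lt_mul hp hp) with h4 | h4 | h4
  · exact h4
  · exact (ha (h4 ▸ h3)).elim
  · exact (ha ((Nat.dvd_add_left (h4 ▸ h3)).1 h2)).elim

theorem Vals.third {a b p q r : ℕ} (h : Vals G a b) (hp : p.Prime) (hp2 : p ≠ 2) (hq : q.Prime)
    (hr : r.Prime) (hr2 : r ≠ 2) (hpq : p ≠ q) (hpr : p ≠ r) (hqr : q ≠ r)
    (hpd : p ∣ Nat.card G) (hrd : r ∣ Nat.card G) (ha : so G p = a) (hb : so G q = a) :
    so G r = a := by
  refine (h.prime hr hr2 hrd).resolve_right fun hc => ?_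
  obtain ⟨e1, e2, e3⟩ := h.same hp hp2 hq hpq hpd ha hb
  have f1 := dvd_so_add hp hpd ((Nat.coprime_primes hp hr).2 hpr)
  have f2 := dvd_so_add hr hrd ((Nat.coprime_primes hr hp).2 hpr.symm)
  have f3 := dvd_so_add hr hrd (Nat.Coprime.mul_right ((Nat.coprime_primes hr hp).2 hpr.symm)
    ((Nat.coprime_primes hr hq).2 hqr.symm))
  have f4 := dvd_one_add_so hr hrd
  rw [hc] at f1 f4
  rw [ha, mul_comm] at f2
  rw [e1] at f3
  have hpa : ¬ p ∣ a := fun h3 => hp.one_lt.ne' (Nat.dvd_one.1 ((Nat.dvd_add_left h3).1 e2))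
  have g1 : so G (p * r) = a := by
    by_contra hcon
    have hpb : p ∣ b := by
      rcases h _ (two_lt_mul hp hr) with h4 | h4 | h4
      · simpa [h4] using f1
      · exact (hcon h4).elim
      · rw [h4, ← two_mul] at f1
        exact ((Nat.Prime.dvd_mul hp).1 f1).resolve_left
          fun h => hp2 ((Nat.prime_dvd_prime_iff_eq hp Nat.prime_two).1 h)
    exact hpa ((Nat.dvd_add_left hpb).1 e3)
  rw [g1, ← two_mul] at f2
  have hra : r ∣ a := ((Nat.Prime.dvd_mul hr).1 f2).resolve_left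
    fun h => hr2 ((Nat.prime_dvd_prime_iff_eq hr Nat.prime_two).1 h)
  have hlt : 2 < r * (p * q) := by
    have := two_lt_mul hp hq; have := hr.two_le; nlinarith
  rcases h _ hlt with h4 | h4 | h4
  · exact false_of_dvd_one_add hr hr2 f4 f3 (Or.inl h4)
  · rw [h4] at f3
    exact false_of_dvd_one_add hr hr2 f4 (c := 0) ((Nat.dvd_add_left hra).1 f3) (Or.inl rfl)
  · exact false_of_dvd_one_add hr hr2 f4 f3 (Or.inr h4)

/-- If all odd primes have the same number `a` of elements and there are at least two of them, every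
odd prime power dividing the order divides `1 + a`. -/
theorem Vals.pow_dvd {a b p q : ℕ} (h : Vals G a b) (hp : p.Prime) (hp2 : p ≠ 2) (hq : q.Prime)
    (hpq : p ≠ q) (hpd : p ∣ Nat.card G) (ha : so G p = a) (hb : so G q = a) {k : ℕ}
    (hk : p ^ k ∣ Nat.card G) : p ^ k ∣ 1 + a := by
  obtain ⟨-, e2, e3⟩ := h.same hp hp2 hq hpq hpd ha hb
  exact ha ▸ pow_dvd_one_add_so hp (h.so_sq hp e2 e3) hk

theorem Vals.false_of_three_aux {a b p q r : ℕ} (h : Vals G a b) (h4 : ¬ 4 ∣ Nat.card G)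
    (hp : p.Prime) (hp2 : p ≠ 2) (hq : q.Prime) (hq2 : q ≠ 2)
    (hr : r.Prime) (hr2 : r ≠ 2) (hpq : p ≠ q) (hpr : p ≠ r) (hqr : q ≠ r)
    (hpd : p ∣ Nat.card G) (hrd : r ∣ Nat.card G) (ha : so G p = a)
    (hb : so G q = a) : False := by
  have all : ∀ t : ℕ, t.Prime → t ≠ 2 → t ∣ Nat.card G → so G t = a := by
    intro t ht ht2 htd
    by_cases h1 : p = t
    · exact h1 ▸ ha
    by_cases h2 : q = t
    · exact h2 ▸ hb
    exact h.third hp hp2 hq ht ht2 hpq h1 h2 hpd htd ha hb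
  have hd : Nat.card G ∣ 2 * (1 + a) := by
    rw [Nat.dvd_iff_prime_pow_dvd_dvd]
    intro t k ht hk
    rcases Nat.eq_zero_or_pos k with rfl | hk0
    · simp
    by_cases ht2 : t = 2
    · subst ht2
      have : ¬ 2 ≤ k := fun h2 => h4 ((pow_dvd_pow 2 h2).trans hk)
      obtain rfl : k = 1 := by omega
      simp
    have htd : t ∣ Nat.card G := (dvd_pow_self t hk0.ne').trans hk
    apply Dvd.dvd.mul_left
    by_cases h1 : t = p
    · exact h.pow_dvd ht ht2 hq (h1 ▸ hpq) htd (all t ht ht2 htd) hb hk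
    · exact h.pow_dvd ht ht2 hp h1 htd (all t ht ht2 htd) ha hk
  have h5 := Nat.le_of_dvd (by omega) hd
  have h6 := sum_so_le (G := G) {1, p, q, r}
  have := hp.one_lt; have := hq.one_lt; have := hr.one_lt
  rw [Finset.sum_insert (by simp; omega), Finset.sum_insert (by simp; omega),
    Finset.sum_pair hqr, so_one, ha, hb, all r hr hr2 hrd] at h6
  have := two_le_so_of_odd_prime hp hp2 hpd
  omega

/-- At most two odd primes divide the order when four does not. -/
theorem Vals.false_of_three {a b p q r : ℕ} (h : Vals G a b) (h4 : ¬ 4 ∣ Nat.card G)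
    (hp : p.Prime) (hp2 : p ≠ 2) (hq : q.Prime) (hq2 : q ≠ 2)
    (hr : r.Prime) (hr2 : r ≠ 2) (hpq : p ≠ q) (hpr : p ≠ r) (hqr : q ≠ r)
    (hpd : p ∣ Nat.card G) (hqd : q ∣ Nat.card G) (hrd : r ∣ Nat.card G) : False := by
  rcases h.prime hp hp2 hpd with h1 | h1 <;> rcases h.prime hq hq2 hqd with h2 | h2 <;>
    rcases h.prime hr hr2 hrd with h3 | h3
  · exact h.false_of_three_aux h4 hp hp2 hq hq2 hr hr2 hpq hpr hqr hpd hrd h1 h2
  · exact h.false_of_three_aux h4 hp hp2 hq hq2 hr hr2 hpq hpr hqr hpd hrd h1 h2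
  · exact h.false_of_three_aux h4 hp hp2 hr hr2 hq hq2 hpr hpq hqr.symm hpd hqd h1 h3
  · exact h.symm.false_of_three_aux h4 hq hq2 hr hr2 hp hp2 hqr hpq.symm hpr.symm hqd hpd h2 h3
  · exact h.false_of_three_aux h4 hq hq2 hr hr2 hp hp2 hqr hpq.symm hpr.symm hqd hpd h2 h3
  · exact h.symm.false_of_three_aux h4 hp hp2 hr hr2 hq hq2 hpr hpq hqr.symm hpd hqd h1 h3
  · exact h.symm.false_of_three_aux h4 hp hp2 hq hq2 hr hr2 hpq hpr hqr hpd hrd h1 h2
  · exact h.symm.false_of_three_aux h4 hp hp2 hq hq2 hr hr2 hpq hpr hqr hpd hrd h1 h2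

theorem ne_one_of_two_lt {m : ℕ} (hm : 2 < m) : so G m ≠ 1 := fun e => by
  have := two_dvd_so (G := G) hm
  rw [e] at this
  omega

/-- From "three values" to `Vals`. -/
theorem exists_vals_of_ncard
    (h : (((fun m : ℕ => so G m) '' Set.range (orderOf : G → ℕ))).ncard = 3) :
    ∃ a b : ℕ, ∀ m, so G m = 0 ∨ so G m = 1 ∨ so G m = a ∨ so G m = b := by
  obtain ⟨x, y, z, -, -, -, e⟩ := Set.ncard_eq_three.1 h
  have hm : ∀ m, so G m = 0 ∨ so G m = x ∨ so G m = y ∨ so G m = z := by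
    intro m
    by_cases h0 : so G m = 0
    · exact Or.inl h0
    · have : so G m ∈ (fun m : ℕ => so G m) '' Set.range (orderOf : G → ℕ) :=
        ⟨m, so_ne_zero_iff.1 h0, rfl⟩
      rw [e] at this
      exact Or.inr this
  have h1 := hm 1
  rw [so_one] at h1
  rcases h1 with h1 | rfl | rfl | rfl
  · omega
  · exact ⟨y, z, hm⟩
  · exact ⟨x, z, fun m => by have := hm m; tauto⟩
  · exact ⟨x, y, fun m => by have := hm m; tauto⟩

theorem vals_of_forall {a b : ℕ} (h : ∀ m, so G m = 0 ∨ so G m = 1 ∨ so G m = a ∨ so G m = b) :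
    Vals G a b := fun m hm => by
  have := h m; have := ne_one_of_two_lt (G := G) hm; tauto

/-- A unique involution is central. -/
theorem mem_center_of_so_two (h : so G 2 = 1) {z : G} (hz : orderOf z = 2) : z ∈ center G := by
  rw [mem_center_iff]
  intro g
  have := (Nat.card_eq_one_iff_unique.1 h).1
  have e := Subsingleton.elim (⟨g * z * g⁻¹, (orderOf_conj' g z).trans hz⟩ : {g : G // orderOf g = 2})
    ⟨z, hz⟩
  exact mul_inv_eq_iff_eq_mul.1 (congrArg Subtype.val e)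

/-- If every element of order `p` commutes with an element of odd prime order `q`, there are at least
twice as many elements of order `p q` as of order `p`. -/
theorem two_mul_so_le {p q : ℕ} (hp : p.Prime) (hq : q.Prime) (hq2 : q ≠ 2) (hpq : p ≠ q)
    (h : ¬ p ∣ so G q) : 2 * so G p ≤ so G (p * q) := by
  have := Fact.mk hp
  have hc : p.Coprime q := (Nat.coprime_primes hp hq).2 hpq
  have key : ∀ u : {g : G // orderOf g = p}, ∃ v : G, orderOf v = q ∧ Commute u.1 v := by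
    intro u
    have hP : IsPGroup p (zpowers (ConjAct.toConjAct u.1)) :=
      IsPGroup.of_card (n := 1) (by
        rw [Nat.card_zpowers, pow_one]; exact (ConjAct.toConjAct.orderOf_eq u.1).trans u.2)
    have h1 := card_modEq_card_fixed hP (fun y : G => orderOf y = q) (fun a y hy =>
      (orderOf_conj' _ y).trans hy)
    have h2 : Nat.card {y : G // orderOf y = q ∧
        ∀ a : zpowers (ConjAct.toConjAct u.1), a • y = y} ≠ 0 := by
      intro h0
      rw [h0] at h1
      exact h ((Nat.modEq_zero_iff_dvd).1 h1)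
    obtain ⟨⟨v, hv, hv'⟩, -⟩ := Nat.card_ne_zero.1 h2
    refine ⟨v, hv, ?_⟩
    have := hv' ⟨_, mem_zpowers _⟩
    exact mul_inv_eq_iff_eq_mul.1 this
  choose v hv hc' using key
  let f : Bool × {g : G // orderOf g = p} → {g : G // orderOf g = p * q} := fun x =>
    if x.1 then ⟨x.2.1 * v x.2, by
      rw [(hc' x.2).orderOf_mul_eq_mul_orderOf_of_coprime (by rw [x.2.2, hv]; exact hc), x.2.2, hv]⟩
    else ⟨x.2.1 * (v x.2)⁻¹, by
      rw [(hc' x.2).inv_right.orderOf_mul_eq_mul_orderOf_of_coprime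
        (by rw [x.2.2, orderOf_inv, hv]; exact hc), x.2.2, orderOf_inv, hv]⟩
  have hvq : ∀ u, v u ^ q = 1 := fun u => hv u ▸ pow_orderOf_eq_one _
  have hf : ∀ x, (f x).1 ^ q = x.2.1 ^ q := by
    rintro ⟨_ | _, u⟩
    · simp [f, (hc' u).inv_right.mul_pow, hvq]
    · simp [f, (hc' u).mul_pow, hvq]
  have hne : ∀ u, v u ≠ (v u)⁻¹ := by
    intro u e
    rw [eq_inv_iff_mul_eq_one, ← pow_two, ← orderOf_dvd_iff_pow_eq_one, hv] at e
    exact hq2 ((Nat.prime_dvd_prime_iff_eq hq Nat.prime_two).1 e)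
  have inj : Function.Injective f := by
    rintro ⟨b, u⟩ ⟨b', u'⟩ e
    have e1 : u.1 ^ q = u'.1 ^ q := by
      rw [← hf (b, u), e, hf (b', u')]
    obtain ⟨m, hm⟩ := Nat.exists_mul_mod_eq_one_of_coprime hc.symm hp.one_lt
    have e2 : u = u' := by
      apply Subtype.ext
      calc u.1 = u.1 ^ (q * m % p) := by rw [hm.2, pow_one]
        _ = (u.1 ^ q) ^ m := by rw [← pow_mul, ← pow_mod_orderOf u.1 (q * m), u.2]
        _ = (u'.1 ^ q) ^ m := by rw [e1]
        _ = u'.1 ^ (q * m % p) := by rw [← pow_mul, ← pow_mod_orderOf u'.1 (q * m), u'.2]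
        _ = u'.1 := by rw [hm.2, pow_one]
    subst e2
    have e3 := congrArg Subtype.val e
    cases b <;> cases b' <;> simp [f] at e3 ⊢
    · exact hne u e3.symm
    · exact hne u e3
  have := Nat.card_le_card_of_injective f inj
  simpa using this

end Cfsg.Agent.H4
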