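import Cfsg.Agent.H4.Schur1

/-!
The Hopf cover `F ⧸ ⁅R, F⁆` and the interface for `Cfsg.HasSchurMultiplier` (helper4).
-/

set_option autoImplicit false

namespace Cfsg.Agent.H4

open Subgroup
open scoped commutatorElement

universe u v w

section Hopf

variable {F Q : Type*} [Group F] [Group Q]

/-- `F ⧸ ⁅R, F⁆` for `R` the kernel of `φ`. -/
abbrev HopfCover (φ : F →* Q) := F ⧸ ⁅φ.ker, (⊤ : Subgroup F)⁆

/-- The map of the Hopf cover onto `Q`. -/
def hopfMap (φ : F →* Q) : HopfCover φ →* Q :=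
  QuotientGroup.lift _ φ (commutator_le_left _ _)

@[simp] theorem hopfMap_mk (φ : F →* Q) (x : F) : hopfMap φ (x : HopfCover φ) = φ x := rfl

theorem hopfMap_comp (φ : F →* Q) : (hopfMap φ).comp (QuotientGroup.mk' _) = φ := rfl

theorem hopfMap_isCentralExt {φ : F →* Q} (hφ : Function.Surjective φ) :
    IsCentralExt (hopfMap φ) := by
  constructor
  · intro q
    obtain ⟨x, rfl⟩ := hφ q
    exact ⟨x, rfl⟩
  · intro x hx
    obtain ⟨x, rfl⟩ := QuotientGroup.mk_surjective x
    rw [mem_center_iff]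
    intro y
    obtain ⟨y, rfl⟩ := QuotientGroup.mk_surjective y
    rw [← QuotientGroup.mk_mul, ← QuotientGroup.mk_mul, QuotientGroup.eq]
    have hx' : x⁻¹ ∈ φ.ker := inv_mem hx
    have := commutator_mem_commutator hx' (mem_top y⁻¹)
    convert this using 1
    rw [commutatorElement_def]; group

/-- Over a free group the Hopf cover maps to every central extension. -/
theorem exists_hopf_over [IsFreeGroup F] (φ : F →* Q) {E : Type*} [Group E] {π : E →* Q}
    (hπ : IsCentralExt π) : ∃ f : HopfCover φ →* E, π.comp f = hopfMap φ := by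
  let s := Function.surjInv hπ.surj
  have hs : ∀ q, π (s q) = q := Function.surjInv_eq hπ.surj
  let g : F →* E := IsFreeGroup.lift (fun a => s (φ (IsFreeGroup.of a)))
  have hg : π.comp g = φ := by
    apply IsFreeGroup.ext_hom
    intro a
    simp [g, hs]
  have hk : ⁅φ.ker, (⊤ : Subgroup F)⁆ ≤ g.ker := by
    rw [commutator_le]
    intro x hx y _
    rw [MonoidHom.mem_ker, map_commutatorElement, commutatorElement_eq_one_iff_mul_comm]
    have : g x ∈ center E := hπ.central (by
      show π (g x) = 1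
      rw [← MonoidHom.comp_apply, hg]; exact hx)
    exact (mem_center_iff.mp this _).symm
  refine ⟨QuotientGroup.lift _ g hk, ?_⟩
  ext x
  exact DFunLike.congr_fun hg x

end Hopf

section Quot

variable {E Q : Type*} [Group E] [Group Q]

/-- Dividing a central extension by a complement of `mker` gives a stem extension. -/
theorem exists_stem_of_complement {π : E →* Q} (hπ : IsCentralExt π) (S : Subgroup E) [S.Normal]
    (hS : S ≤ π.ker) (h1 : S ⊓ mker π = ⊥) (h2 : S ⊔ mker π = π.ker) :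
    Cfsg.IsStemExtension (QuotientGroup.lift S π hS) ∧
      Nonempty ((QuotientGroup.lift S π hS).ker ≃* mker π) := by
  set σ := QuotientGroup.lift S π hS with hσ
  have hover : σ.comp (QuotientGroup.mk' S) = π := rfl
  have hcent : σ.ker ≤ center (E ⧸ S) := by
    intro x hx
    obtain ⟨x, rfl⟩ := QuotientGroup.mk_surjective x
    have hx' : x ∈ center E := hπ.central hx
    rw [mem_center_iff] at hx' ⊢
    intro y
    obtain ⟨y, rfl⟩ := QuotientGroup.mk_surjective y
    rw [← QuotientGroup.mk_mul, ← QuotientGroup.mk_mul, hx']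
  have hsurj : Function.Surjective σ := by
    intro q
    obtain ⟨x, rfl⟩ := hπ.surj q
    exact ⟨x, rfl⟩
  have hmap := map_mker_of_over hcent (QuotientGroup.mk' S) hover hπ.surj
  have hle : σ.ker ≤ commutator (E ⧸ S) := by
    intro x hx
    obtain ⟨x, rfl⟩ := QuotientGroup.mk_surjective x
    have hx' : x ∈ π.ker := hx
    rw [← h2] at hx'
    obtain ⟨y, hy, z, hz, rfl⟩ := mem_sup_of_normal_left.mp hx'
    have : ((y * z : E) : E ⧸ S) = QuotientGroup.mk' S z := by
      rw [QuotientGroup.mk_mul, (QuotientGroup.eq_one_iff y).mpr hy, one_mul]; rfl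
    rw [this]
    have := mem_map_of_mem (QuotientGroup.mk' S) hz
    rw [hmap] at this
    exact this.2
  have hstem : Cfsg.IsStemExtension σ := ⟨hsurj, hcent, hle⟩
  refine ⟨hstem, ?_⟩
  obtain ⟨g, hg, hg'⟩ := exists_surj_mker_of_over hcent (QuotientGroup.mk' S) hover hπ.surj
  have hinj : Function.Injective g := by
    rw [injective_iff_map_eq_one]
    intro x hx
    have h3 : (QuotientGroup.mk' S x : E ⧸ S) = 1 := by rw [← hg', hx]; rfl
    have h4 : (x : E) ∈ S := (QuotientGroup.eq_one_iff _).mp h3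
    have : (x : E) ∈ S ⊓ mker π := ⟨h4, x.2⟩
    rw [h1] at this
    exact Subtype.ext this
  exact ⟨(MulEquiv.subgroupCongr (stem_mker_eq hstem).symm).trans
    (MulEquiv.ofBijective g ⟨hinj, hg⟩).symm⟩

end Quot

section Universal

variable (Q : Type u) [Group Q]

/-- The tautological free presentation. -/
def taut : FreeGroup Q →* Q := FreeGroup.lift id

theorem taut_surjective : Function.Surjective (taut Q) := fun q =>
  ⟨FreeGroup.of q, by simp [taut]⟩

/-- The universal Hopf cover of `Q`. -/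
abbrev UC := HopfCover (taut Q)

/-- The map of the universal Hopf cover. -/
abbrev ucMap : UC Q →* Q := hopfMap (taut Q)

theorem ucMap_isCentralExt : IsCentralExt (ucMap Q) := hopfMap_isCentralExt (taut_surjective Q)

variable {Q}

theorem exists_uc_complement [Finite Q] (N : Subgroup (UC Q)) (hN : N ≤ (ucMap Q).ker)
    (hN' : N ⊔ mker (ucMap Q) = (ucMap Q).ker) :
    ∃ S : Subgroup (UC Q), S ≤ N ∧ S ⊓ mker (ucMap Q) = ⊥ ∧
      S ⊔ mker (ucMap Q) = (ucMap Q).ker := by
  have hc := (ucMap_isCentralExt Q).central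
  set Z := (ucMap Q).ker with hZ
  let _ : CommGroup Z :=
    { (inferInstance : Group Z) with
      mul_comm := fun a b => Subtype.ext (mem_center_iff.mp (hc b.2) a) }
  have hk : ⁅(taut Q).ker, (⊤ : Subgroup (FreeGroup Q))⁆ ≤
      (Abelianization.of : FreeGroup Q →* _).ker := by
    rw [Abelianization.ker_of]
    exact commutator_mono le_top le_top
  let a : UC Q →* Abelianization (FreeGroup Q) := QuotientGroup.lift _ Abelianization.of hk
  have ha : a.ker = commutator (UC Q) := by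
    apply le_antisymm
    · intro x hx
      obtain ⟨x, rfl⟩ := QuotientGroup.mk_surjective x
      have : x ∈ (Abelianization.of : FreeGroup Q →* _).ker := hx
      rw [Abelianization.ker_of] at this
      have h2 := mem_map_of_mem (QuotientGroup.mk' ⁅(taut Q).ker, (⊤ : Subgroup (FreeGroup Q))⁆)
        this
      rw [map_commutator_eq] at h2
      exact commutator_mono le_top le_top h2
    · exact Abelianization.commutator_subset_ker a
  let α : Z →* Multiplicative (FreeAbelianGroup Q) := a.comp Z.subtype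
  have hα : α.ker = (mker (ucMap Q)).subgroupOf Z := by
    ext x
    rw [mem_subgroupOf, MonoidHom.mem_ker]
    constructor
    · intro h
      exact ⟨x.2, ha ▸ h⟩
    · intro h
      have := h.2
      rw [← ha] at this
      exact this
  have hsup : N.subgroupOf Z ⊔ α.ker = ⊤ := by
    rw [hα, ← subgroupOf_sup hN inf_le_left, hN', subgroupOf_self]
  obtain ⟨S, hS1, hS2, hS3⟩ := exists_complement_of_free α (N.subgroupOf Z) hsup
  rw [hα] at hS2 hS3
  refine ⟨S.map Z.subtype, ?_, ?_, ?_⟩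
  · rintro _ ⟨x, hx, rfl⟩
    exact hS1 hx
  · rw [eq_bot_iff]
    rintro _ ⟨⟨x, hx, rfl⟩, hx'⟩
    have : x ∈ S ⊓ (mker (ucMap Q)).subgroupOf Z := ⟨hx, hx'⟩
    rw [hS2, mem_bot] at this
    rw [this]; exact one_mem _
  · have := congrArg (map Z.subtype) hS3
    rw [Subgroup.map_sup, subgroupOf_map_subtype, ← MonoidHom.range_eq_map, range_subtype,
      inf_eq_left.mpr inf_le_left] at this
    exact this

theorem normal_of_le_center {E : Type*} [Group E] {S : Subgroup E} (h : S ≤ center E) :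
    S.Normal := ⟨fun x hx g => by
      rw [mem_center_iff.mp (h hx) g]; simpa using hx⟩

/-- A Schur cover dominating a given stem extension. -/
theorem exists_cover_over [Finite Q] {Δ : Type v} [Group Δ] {τ : Δ →* Q}
    (hτ : Cfsg.IsStemExtension τ) :
    ∃ (Γ : Type u) (_ : Group Γ) (_ : Finite Γ) (σ : Γ →* Q), Cfsg.IsStemExtension σ ∧
      Nonempty (σ.ker ≃* mker (ucMap Q)) ∧
      ∃ β : Γ →* Δ, Function.Surjective β ∧ τ.comp β = σ := by
  have hU := ucMap_isCentralExt Q
  obtain ⟨f, hf⟩ := exists_hopf_over (taut Q) (stem_isCentralExt hτ)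
  have hmap := map_mker_of_over hτ.2.1 f hf hU.surj
  have hfk : f.ker ≤ (ucMap Q).ker := by
    intro x hx
    show hopfMap (taut Q) x = 1
    rw [← hf, MonoidHom.comp_apply, hx, map_one]
  have hsup : f.ker ⊔ mker (ucMap Q) = (ucMap Q).ker := by
    refine le_antisymm (sup_le hfk inf_le_left) fun x hx => ?_
    have h1 : f x ∈ mker τ := by
      rw [stem_mker_eq hτ]
      show τ (f x) = 1
      rw [← MonoidHom.comp_apply, hf]; exact hx
    rw [← hmap] at h1
    obtain ⟨y, hy, hxy⟩ := h1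
    have : x = (x * y⁻¹) * y := by simp
    rw [this]
    exact mul_mem_sup (by simp [MonoidHom.mem_ker, hxy]) hy
  obtain ⟨S, hS1, hS2, hS3⟩ := exists_uc_complement f.ker hfk hsup
  have hSk : S ≤ (ucMap Q).ker := hS1.trans hfk
  have : S.Normal := normal_of_le_center (hSk.trans hU.central)
  obtain ⟨hstem, ⟨e⟩⟩ := exists_stem_of_complement hU S hSk hS2 hS3
  have := hU.finite_mker
  have : Finite (QuotientGroup.lift S (ucMap Q) hSk).ker := Finite.of_equiv _ e.symm.toEquiv
  have hβ : τ.comp (QuotientGroup.lift S f hS1) = QuotientGroup.lift S (ucMap Q) hSk := by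
    ext x
    exact DFunLike.congr_fun hf _
  refine ⟨UC Q ⧸ S, inferInstance, finite_of_finite_ker (QuotientGroup.lift S (ucMap Q) hSk),
    QuotientGroup.lift S (ucMap Q) hSk, hstem, ⟨e⟩, QuotientGroup.lift S f hS1, ?_, hβ⟩
  apply surjective_of_over_stem hτ
  rw [hβ]; exact hstem.1

theorem id_isStem (Q : Type*) [Group Q] : Cfsg.IsStemExtension (MonoidHom.id Q) :=
  ⟨Function.surjective_id, by simp, by simp⟩

theorem exists_cover [Finite Q] :
    ∃ (Γ : Type u) (_ : Group Γ) (_ : Finite Γ) (σ : Γ →* Q), Cfsg.IsStemExtension σ ∧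
      Nonempty (σ.ker ≃* mker (ucMap Q)) := by
  obtain ⟨Γ, _, _, σ, h1, h2, -⟩ := exists_cover_over (id_isStem Q)
  exact ⟨Γ, _, ‹_›, σ, h1, h2⟩

theorem exists_surj_uc_mker {E : Type*} [Group E] {π : E →* Q} (hπ : IsCentralExt π) :
    ∃ g : mker (ucMap Q) →* mker π, Function.Surjective g := by
  obtain ⟨f, hf⟩ := exists_hopf_over (taut Q) hπ
  obtain ⟨g, hg, -⟩ := exists_surj_mker_of_over hπ.central f hf (ucMap_isCentralExt Q).surj
  exact ⟨g, hg⟩

variable {A : Type v} [CommGroup A]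

theorem hsm_finite_base (h : Cfsg.HasSchurMultiplier Q A) : Finite Q := by
  obtain ⟨⟨Γ, _, _, σ, hσ, -⟩, -⟩ := h
  exact Finite.of_surjective σ hσ.1

theorem hsm_finite (h : Cfsg.HasSchurMultiplier Q A) : Finite A := by
  obtain ⟨⟨Γ, _, _, σ, -, ⟨e⟩⟩, -⟩ := h
  exact Finite.of_equiv _ e.toEquiv

/-- Key lemma: the multiplier surjects onto `ker π ⊓ E'` for every central extension. -/
theorem hsm_exists_surj (h : Cfsg.HasSchurMultiplier Q A) {E : Type*} [Group E] {π : E →* Q}
    (hπ : IsCentralExt π) : ∃ g : A →* mker π, Function.Surjective g := by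
  have := hsm_finite_base h
  obtain ⟨Γ, _, _, σ, hσ, ⟨e⟩⟩ := exists_cover (Q := Q)
  obtain ⟨g, hg⟩ := h.2 Γ σ hσ
  obtain ⟨g', hg'⟩ := exists_surj_uc_mker hπ
  exact ⟨(g'.comp e.toMonoidHom).comp g, (hg'.comp e.surjective).comp hg⟩

theorem hsm_card_mker_le (h : Cfsg.HasSchurMultiplier Q A) {E : Type*} [Group E] {π : E →* Q}
    (hπ : IsCentralExt π) : Nat.card (mker π) ≤ Nat.card A := by
  have := hsm_finite h
  obtain ⟨g, hg⟩ := hsm_exists_surj h hπ
  exact Nat.card_le_card_of_surjective g hg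

theorem hsm_card_mker_dvd (h : Cfsg.HasSchurMultiplier Q A) {E : Type*} [Group E] {π : E →* Q}
    (hπ : IsCentralExt π) : Nat.card (mker π) ∣ Nat.card A := by
  obtain ⟨g, hg⟩ := hsm_exists_surj h hπ
  exact Subgroup.card_dvd_of_surjective g hg

/-- Criterion for the multiplier. -/
theorem hsm_of_bounds [Finite Q] [Finite A] {E : Type*} [Group E] {π : E →* Q}
    (hπ : IsCentralExt π) (hle : Nat.card A ≤ Nat.card (mker π))
    (hup : ∀ (Γ : Type u) [Group Γ] [Finite Γ] (σ : Γ →* Q), Cfsg.IsStemExtension σ →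
      ∃ g : A →* σ.ker, Function.Surjective g) : Cfsg.HasSchurMultiplier Q A := by
  refine ⟨?_, hup⟩
  obtain ⟨Γ, _, _, σ, hσ, ⟨e⟩⟩ := exists_cover (Q := Q)
  obtain ⟨g, hg⟩ := hup Γ σ hσ
  obtain ⟨g', hg'⟩ := exists_surj_uc_mker hπ
  have h1 : Nat.card (mker π) ≤ Nat.card σ.ker :=
    Nat.card_le_card_of_surjective _ (hg'.comp e.surjective)
  exact ⟨Γ, _, ‹_›, σ, hσ, ⟨(MulEquiv.ofBijective g
    (bijective_of_surjective_of_card_le g hg (hle.trans h1))).symm⟩⟩

theorem hsm_equiv_uc (h : Cfsg.HasSchurMultiplier Q A) : Nonempty (A ≃* mker (ucMap Q)) := by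
  have := hsm_finite h
  have := hsm_finite_base h
  have := (ucMap_isCentralExt Q).finite_mker
  obtain ⟨g, hg⟩ := hsm_exists_surj h (ucMap_isCentralExt Q)
  obtain ⟨⟨Γ, _, _, σ, hσ, ⟨e⟩⟩, -⟩ := h
  obtain ⟨g', hg'⟩ := exists_surj_uc_mker (stem_isCentralExt hσ)
  have h1 : Nat.card A ≤ Nat.card (mker (ucMap Q)) := by
    rw [← Nat.card_congr e.toEquiv, ← stem_mker_eq hσ]
    exact Nat.card_le_card_of_surjective _ hg'
  exact ⟨MulEquiv.ofBijective g (bijective_of_surjective_of_card_le g hg h1)⟩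

theorem hsm_congr_right {B : Type*} [CommGroup B] (h : Cfsg.HasSchurMultiplier Q A)
    (e : A ≃* B) : Cfsg.HasSchurMultiplier Q B := by
  obtain ⟨⟨Γ, _, _, σ, hσ, ⟨e'⟩⟩, h2⟩ := h
  refine ⟨⟨Γ, _, ‹_›, σ, hσ, ⟨e'.trans e⟩⟩, fun Γ _ _ σ hσ => ?_⟩
  obtain ⟨g, hg⟩ := h2 Γ σ hσ
  exact ⟨g.comp e.symm.toMonoidHom, hg.comp e.symm.surjective⟩

theorem hsm_unique {B : Type*} [CommGroup B] (h : Cfsg.HasSchurMultiplier Q A)
    (h' : Cfsg.HasSchurMultiplier Q B) : Nonempty (A ≃* B) := by
  obtain ⟨e⟩ := hsm_equiv_uc h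
  obtain ⟨e'⟩ := hsm_equiv_uc h'
  exact ⟨e.trans e'.symm⟩

/-- A Schur cover admits no proper central extension inside the commutator subgroup. -/
theorem ker_inf_commutator_eq_bot_of_cover (h : Cfsg.HasSchurMultiplier Q A) {Γ E : Type*}
    [Group Γ] [Group E] {σ : Γ →* Q} (hσ : Cfsg.IsStemExtension σ) (e : σ.ker ≃* A)
    {π : E →* Q} (hπ : IsCentralExt π) (f : E →* Γ) (hf : σ.comp f = π) :
    f.ker ⊓ commutator E = ⊥ := by
  have := hsm_finite h
  have := hsm_finite_base h
  have := hπ.finite_mker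
  obtain ⟨g, hg, hg'⟩ := exists_surj_mker_of_over hσ.2.1 f hf hπ.surj
  have h1 : Nat.card (mker π) ≤ Nat.card (mker σ) := by
    rw [stem_mker_eq hσ, Nat.card_congr e.toEquiv]
    exact hsm_card_mker_le h hπ
  have hb := bijective_of_surjective_of_card_le g hg h1
  rw [eq_bot_iff]
  rintro x ⟨hx1, hx2⟩
  have hx3 : x ∈ mker π := ⟨by
    show π x = 1
    rw [← hf, MonoidHom.comp_apply, hx1, map_one], hx2⟩
  have : g ⟨x, hx3⟩ = 1 := Subtype.ext (by rw [hg']; exact hx1)
  have := (injective_iff_map_eq_one g).mp hb.1 _ this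
  exact congrArg Subtype.val this

/-- If the pull-back of `τ` to `Γ` has nothing in the commutator subgroup then `ker τ` is a
quotient of `ker σ`. -/
theorem exists_surj_ker_of_pb {Q Γ Δ : Type*} [Group Q] [Group Γ] [Group Δ] {σ : Γ →* Q}
    {τ : Δ →* Q} (hσ : Cfsg.IsStemExtension σ) (hτ : Cfsg.IsStemExtension τ)
    (h : mker (pb1 σ τ) = ⊥) : ∃ g : σ.ker →* τ.ker, Function.Surjective g := by
  have hP := pb_isCentralExt (stem_isCentralExt hσ) (stem_isCentralExt hτ)
  obtain ⟨g1, hg1, hg1'⟩ := exists_surj_mker_of_over hσ.2.1 (pb1 σ τ) rfl hP.surj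
  obtain ⟨g2, hg2, -⟩ := exists_surj_mker_of_over hτ.2.1 (pb2 σ τ) (pb_comm σ τ).symm hP.surj
  have hinj : Function.Injective g1 := by
    rw [injective_iff_map_eq_one]
    intro x hx
    have : (x : pb σ τ) ∈ mker (pb1 σ τ) := ⟨by
      show pb1 σ τ x = 1
      rw [← hg1', hx]; rfl, x.2.2⟩
    rw [h] at this
    exact Subtype.ext this
  let e1 := MulEquiv.ofBijective g1 ⟨hinj, hg1⟩
  let c1 := MulEquiv.subgroupCongr (stem_mker_eq hσ)
  let c2 := MulEquiv.subgroupCongr (stem_mker_eq hτ)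
  exact ⟨((c2.toMonoidHom.comp g2).comp e1.symm.toMonoidHom).comp c1.symm.toMonoidHom,
    ((c2.surjective.comp hg2).comp e1.symm.surjective).comp c1.symm.surjective⟩

/-- Trivial multiplier, in terms of stem extensions. -/
theorem hsm_one_iff : Cfsg.HasCyclicSchurMultiplier Q 1 ↔
    Finite Q ∧ ∀ (Γ : Type u) [Group Γ] [Finite Γ] (σ : Γ →* Q), Cfsg.IsStemExtension σ →
      σ.ker = ⊥ := by
  constructor
  · intro h
    refine ⟨hsm_finite_base h, fun Γ _ _ σ hσ => ?_⟩
    obtain ⟨g, hg⟩ := h.2 Γ σ hσ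
    rw [eq_bot_iff]
    intro x hx
    obtain ⟨a, ha⟩ := hg ⟨x, hx⟩
    rw [Subsingleton.elim a 1, map_one] at ha
    exact (congrArg Subtype.val ha).symm
  · rintro ⟨_, h⟩
    refine ⟨⟨Q, inferInstance, inferInstance, MonoidHom.id Q, id_isStem Q, ?_⟩,
      fun Γ _ _ σ hσ => ⟨1, ?_⟩⟩
    · have : Subsingleton (MonoidHom.id Q).ker := by
        rw [MonoidHom.ker_id]; infer_instance
      have : Unique (MonoidHom.id Q).ker := uniqueOfSubsingleton 1
      exact ⟨MulEquiv.ofUnique (M := (MonoidHom.id Q).ker) (N := Multiplicative (ZMod 1))⟩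
    · intro x
      refine ⟨1, ?_⟩
      have := (h Γ σ hσ).le x.2
      exact Subtype.ext (mem_bot.mp this).symm

theorem hsm_one_mker_eq_bot (h : Cfsg.HasCyclicSchurMultiplier Q 1) {E : Type*} [Group E]
    {π : E →* Q} (hπ : IsCentralExt π) : mker π = ⊥ := by
  obtain ⟨g, hg⟩ := hsm_exists_surj h hπ
  rw [eq_bot_iff]
  intro x hx
  obtain ⟨a, ha⟩ := hg ⟨x, hx⟩
  rw [Subsingleton.elim a 1, map_one] at ha
  exact (congrArg Subtype.val ha).symm

end Universal

end Cfsg.Agent.H4
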