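import Cfsg.Agent.H4.Schur2

/-!
Projective representations and Schur covers (helper4).
-/

set_option autoImplicit false

namespace Cfsg.Agent.H4

open Subgroup
open scoped commutatorElement

universe u v w

/-- A central extension with divisible kernel meeting the commutator subgroup trivially splits. -/
theorem exists_section_of_divisible {E G : Type*} [Group E] [Group G] {π : E →* G}
    (hπ : IsCentralExt π) (h : mker π = ⊥)
    (hdiv : ∀ n : ℕ, n ≠ 0 → ∀ d : π.ker, ∃ x : π.ker, x ^ n = d) :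
    ∃ s : G →* E, π.comp s = MonoidHom.id G := by
  let _ : CommGroup π.ker :=
    { (inferInstance : Group π.ker) with
      mul_comm := fun a b => Subtype.ext (mem_center_iff.mp (hπ.central b.2) a) }
  let i : π.ker →* Abelianization E := Abelianization.of.comp π.ker.subtype
  have hi : Function.Injective i := by
    rw [injective_iff_map_eq_one]
    intro x hx
    have h1 : (x : E) ∈ (Abelianization.of : E →* _).ker := hx
    rw [Abelianization.ker_of] at h1
    have : (x : E) ∈ mker π := ⟨x.2, h1⟩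
    rw [h] at this
    exact Subtype.ext this
  obtain ⟨g, hg⟩ := exists_extension_of_divisible hdiv i hi (MonoidHom.id _)
  let r : E →* π.ker := g.comp Abelianization.of
  have hr : ∀ x : π.ker, r x = x := fun x => DFunLike.congr_fun hg x
  let t : E →* E := MonoidHom.mk' (fun x => x * (r x : E)⁻¹) (by
    intro a b
    have ha := mem_center_iff.mp (inv_mem (hπ.central (r a).2))
    have hb := mem_center_iff.mp (inv_mem (hπ.central (r b).2))
    simp only [map_mul, Subgroup.coe_mul, mul_inv_rev, mul_assoc]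
    rw [← mul_assoc (r a : E)⁻¹, ← ha b, mul_assoc, ha])
  have ht : π.ker ≤ t.ker := by
    intro x hx
    show x * (r x : E)⁻¹ = 1
    rw [hr ⟨x, hx⟩]; simp
  refine ⟨π.liftOfSurjective hπ.surj ⟨t, ht⟩, ?_⟩
  ext q
  obtain ⟨x, rfl⟩ := hπ.surj q
  rw [MonoidHom.comp_apply, MonoidHom.liftOfRightInverse_comp_apply]
  show π (x * (r x : E)⁻¹) = π x
  rw [map_mul, map_inv, (r x).2]; simp

theorem units_complex_root (n : ℕ) (hn : n ≠ 0) (d : ℂˣ) : ∃ x : ℂˣ, x ^ n = d := by
  obtain ⟨z, hz⟩ := IsAlgClosed.exists_pow_nat_eq (d : ℂ) (Nat.pos_of_ne_zero hn)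
  have hz0 : z ≠ 0 := by
    rintro rfl
    rw [zero_pow hn] at hz
    exact d.ne_zero hz.symm
  exact ⟨Units.mk0 z hz0, Units.ext (by simpa using hz)⟩

theorem center_GL_root (m n : ℕ) (hn : n ≠ 0) (d : GL (Fin m) ℂ)
    (hd : d ∈ center (GL (Fin m) ℂ)) : ∃ x ∈ center (GL (Fin m) ℂ), x ^ n = d := by
  rw [Matrix.GeneralLinearGroup.center_eq_range_scalar] at hd ⊢
  obtain ⟨a, rfl⟩ := hd
  obtain ⟨x, rfl⟩ := units_complex_root n hn a
  exact ⟨_, ⟨x, rfl⟩, by rw [map_pow]⟩

theorem mk_center_isCentralExt (X : Type*) [Group X] :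
    IsCentralExt (QuotientGroup.mk' (center X)) :=
  ⟨QuotientGroup.mk'_surjective _, by rw [QuotientGroup.ker_mk']⟩

/-- Projective representations lift to a Schur cover. -/
theorem exists_lift_of_cover {Q : Type u} [Group Q] {A : Type v} [CommGroup A]
    (hA : Cfsg.HasSchurMultiplier Q A) {Γ : Type w} [Group Γ] {σ : Γ →* Q}
    (hσ : Cfsg.IsStemExtension σ) (e : σ.ker ≃* A) (n : ℕ)
    (γ : Q →* (GL (Fin n) ℂ ⧸ center (GL (Fin n) ℂ))) :
    ∃ ρ : Γ →* GL (Fin n) ℂ,
      (QuotientGroup.mk' (center (GL (Fin n) ℂ))).comp ρ = γ.comp σ := by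
  set m := QuotientGroup.mk' (center (GL (Fin n) ℂ)) with hm
  have hmc : IsCentralExt m := mk_center_isCentralExt _
  have hP := pb1_isCentralExt (γ.comp σ) hmc
  have hπ : IsCentralExt (σ.comp (pb1 (γ.comp σ) m)) := by
    refine ⟨hσ.1.comp hP.surj, fun p hp => ?_⟩
    have h1 : σ p.1.1 = 1 := hp
    refine pb_mem_center (hσ.2.1 h1) (hmc.central ?_)
    have := p.2
    rw [mem_pb, MonoidHom.comp_apply, h1, map_one] at this
    exact this.symm
  have h0 := ker_inf_commutator_eq_bot_of_cover hA hσ e hπ _ rfl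
  obtain ⟨s, hs⟩ := exists_section_of_divisible hP h0 (by
    intro k hk d
    have h1 : d.1.1.1 = 1 := d.2
    have h2 : d.1.1.2 ∈ center (GL (Fin n) ℂ) := hmc.central (by
      have := d.1.2
      rw [mem_pb, h1, map_one] at this
      exact this.symm)
    obtain ⟨x, hx, hx'⟩ := center_GL_root n k hk _ h2
    refine ⟨⟨⟨(1, x), ?_⟩, rfl⟩, ?_⟩
    · rw [mem_pb, map_one]
      exact ((QuotientGroup.eq_one_iff x).mpr hx).symm
    · apply Subtype.ext; apply Subtype.ext
      ext1
      · simpa using h1.symm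
      · simpa using hx')
  refine ⟨(pb2 _ _).comp s, ?_⟩
  rw [← MonoidHom.comp_assoc, ← pb_comm, MonoidHom.comp_assoc, hs, MonoidHom.comp_id]

/-- A representation lying over a character of a central subgroup. -/
theorem exists_rep_over_central {Δ : Type*} [Group Δ] [Finite Δ] (L : Subgroup Δ)
    (hL : L ≤ center Δ) (χ : L →* ℂˣ) :
    ∃ (n : ℕ) (ψ : Δ →* GL (Fin n) ℂ), 0 < n ∧
      ∀ l : L, ψ l = Matrix.GeneralLinearGroup.scalar (Fin n) (χ l) := by
  classical
  let W : Submodule ℂ (Δ → ℂ) :=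
    { carrier := {f | ∀ (l : L) (x : Δ), f (l * x) = χ l * f x}
      add_mem' := by
        intro f g hf hg l x
        simp only [Pi.add_apply, hf l x, hg l x, mul_add]
      zero_mem' := by intro l x; simp
      smul_mem' := by
        intro c f hf l x
        simp only [Pi.smul_apply, hf l x, smul_eq_mul]; ring }
  let ρ : Δ →* Module.End ℂ W :=
    { toFun := fun d =>
        { toFun := fun f => ⟨fun x => f.1 (x * d), fun l x => by
            show f.1 (l * x * d) = χ l * f.1 (x * d)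
            rw [mul_assoc, f.2 l]⟩
          map_add' := fun f g => rfl
          map_smul' := fun c f => rfl }
      map_one' := by ext f x; simp
      map_mul' := by intro a b; ext f x; simp [mul_assoc] }
  have hρ : ∀ l : L, ρ l = algebraMap ℂ _ (χ l : ℂ) := by
    intro l
    ext f x
    show f.1 (x * l) = χ l * f.1 x
    rw [mem_center_iff.mp (hL l.2) x, f.2 l]
  have hW : Nontrivial W := by
    refine ⟨⟨⟨fun x => if h : x ∈ L then (χ ⟨x, h⟩ : ℂ) else 0, ?_⟩, 0, ?_⟩⟩
    · intro l x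
      by_cases hx : x ∈ L
      · have : (l : Δ) * x ∈ L := mul_mem l.2 hx
        simp only [dif_pos hx, dif_pos this]
        rw [← Units.val_mul, ← map_mul]; rfl
      · have : (l : Δ) * x ∉ L := fun h => hx ((mul_mem_cancel_left l.2).mp h)
        simp only [dif_neg hx, dif_neg this, mul_zero]
    · intro h
      have := congrFun (congrArg Subtype.val h) 1
      simp [one_mem L] at this
  let b := Module.finBasis ℂ W
  refine ⟨Module.finrank ℂ W,
    ((LinearMap.toMatrixAlgEquiv b).toMulEquiv.toMonoidHom.comp ρ).toHomUnits,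
    Module.finrank_pos, fun l => ?_⟩
  ext1
  show (LinearMap.toMatrixAlgEquiv b) (ρ l) = _
  rw [hρ, AlgEquiv.commutes]
  rfl

/-- If all projective representations lift along `σ`, then pull-backs of finite central
extensions have nothing in the commutator subgroup. -/
theorem mker_pb_eq_bot_of_lift {Q Γ Δ : Type*} [Group Q] [Group Γ] [Group Δ] [Finite Δ]
    (σ : Γ →* Q)
    (hlift : ∀ (n : ℕ) (γ : Q →* (GL (Fin n) ℂ ⧸ center (GL (Fin n) ℂ))),
      ∃ ρ : Γ →* GL (Fin n) ℂ,
        (QuotientGroup.mk' (center (GL (Fin n) ℂ))).comp ρ = γ.comp σ)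
    {τ : Δ →* Q} (hτ : IsCentralExt τ) : mker (pb1 σ τ) = ⊥ := by
  rw [eq_bot_iff]
  rintro p ⟨hp1, hp2⟩
  have h1 : p.1.1 = 1 := hp1
  have h2 : p.1.2 ∈ τ.ker := by
    have := p.2
    rw [mem_pb, h1, map_one] at this
    exact this.symm
  let _ : CommGroup τ.ker :=
    { (inferInstance : Group τ.ker) with
      mul_comm := fun a b => Subtype.ext (mem_center_iff.mp (hτ.central b.2) a) }
  have : NeZero (Monoid.exponent τ.ker) := ⟨Monoid.exponent_ne_zero_of_finite⟩
  by_contra hne
  have h3 : (⟨p.1.2, h2⟩ : τ.ker) ≠ 1 := by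
    intro h
    apply hne
    rw [mem_bot]
    apply Subtype.ext
    exact Prod.ext h1 (congrArg Subtype.val h)
  obtain ⟨χ, hχ⟩ := CommGroup.exists_apply_ne_one_of_hasEnoughRootsOfUnity τ.ker ℂ h3
  obtain ⟨n, ψ, hn, hψ⟩ := exists_rep_over_central τ.ker hτ.central χ
  set m := QuotientGroup.mk' (center (GL (Fin n) ℂ)) with hm
  have hk : τ.ker ≤ (m.comp ψ).ker := by
    intro x hx
    show m (ψ x) = 1
    rw [hψ ⟨x, hx⟩]
    apply (QuotientGroup.eq_one_iff _).mpr
    rw [Matrix.GeneralLinearGroup.center_eq_range_scalar]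
    exact ⟨_, rfl⟩
  let γ := τ.liftOfSurjective hτ.surj ⟨m.comp ψ, hk⟩
  have hγ : γ.comp τ = m.comp ψ := MonoidHom.liftOfRightInverse_comp ..
  obtain ⟨ρ, hρ⟩ := hlift n γ
  have hover : m.comp (ρ.comp (pb1 σ τ)) = m.comp (ψ.comp (pb2 σ τ)) := by
    rw [← MonoidHom.comp_assoc, hρ, ← MonoidHom.comp_assoc, ← hγ, MonoidHom.comp_assoc,
      MonoidHom.comp_assoc, pb_comm]
  have h4 := eqOn_commutator_of_over (mk_center_isCentralExt _).central hover hp2
  simp only [MonoidHom.comp_apply, pb1_apply, pb2_apply, h1, map_one] at h4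
  rw [hψ ⟨_, h2⟩] at h4
  apply hχ
  have h5 := congrArg (fun g : GL (Fin n) ℂ => g.val ⟨0, hn⟩ ⟨0, hn⟩) h4
  apply Units.ext
  simpa using h5.symm

end Cfsg.Agent.H4
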