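import Cfsg.Agent.H4.Schur2

/-!
Twisted products by bimultiplicative maps, and stem extensions of metacyclic groups (helper4).
-/

set_option autoImplicit false

namespace Cfsg.Agent.H4

open Subgroup
open scoped commutatorElement

universe u v w

/-- The central extension of `G` by `Z` defined by a bimultiplicative map. -/
@[ext] structure Tw {G : Type u} {Z : Type v} [Group G] [CommGroup Z] (β : G →* G →* Z) where
  /-- central component -/
  z : Z
  /-- component in `G` -/
  g : G

namespace Tw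

variable {G : Type u} {Z : Type v} [Group G] [CommGroup Z] {β : G →* G →* Z}

instance instMulTw : Mul (Tw β) := ⟨fun x y => ⟨x.z * y.z * β x.g y.g, x.g * y.g⟩⟩
instance instOneTw : One (Tw β) := ⟨⟨1, 1⟩⟩
instance instInvTw : Inv (Tw β) := ⟨fun x => ⟨x.z⁻¹ * β x.g x.g, x.g⁻¹⟩⟩

@[simp] theorem mul_z (x y : Tw β) : (x * y).z = x.z * y.z * β x.g y.g := rfl
@[simp] theorem mul_g (x y : Tw β) : (x * y).g = x.g * y.g := rfl
@[simp] theorem one_z : (1 : Tw β).z = 1 := rfl
@[simp] theorem one_g : (1 : Tw β).g = 1 := rfl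
@[simp] theorem inv_z (x : Tw β) : x⁻¹.z = x.z⁻¹ * β x.g x.g := rfl
@[simp] theorem inv_g (x : Tw β) : x⁻¹.g = x.g⁻¹ := rfl

instance instGroupTw : Group (Tw β) := Group.ofLeftAxioms
  (fun a b c => by
    ext
    · simp only [mul_z, mul_g, map_mul, MonoidHom.mul_apply]
      simp only [mul_assoc, mul_comm, mul_left_comm]
    · simp [mul_assoc])
  (fun a => by ext <;> simp)
  (fun a => by
    ext
    · simp only [mul_z, inv_z, inv_g, map_inv, MonoidHom.inv_apply, one_z]
      rw [mul_right_comm a.z⁻¹]; simp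
    · simp)

variable (β) in
/-- Projection onto `G`. -/
def proj : Tw β →* G := MonoidHom.mk' (fun x => x.g) (fun _ _ => rfl)

variable (β) in
/-- Inclusion of `Z`. -/
def inl : Z →* Tw β := MonoidHom.mk' (fun z => ⟨z, 1⟩) (fun a b => by ext <;> simp)

@[simp] theorem proj_apply (x : Tw β) : proj β x = x.g := rfl
@[simp] theorem inl_z (a : Z) : (inl β a).z = a := rfl
@[simp] theorem inl_g (a : Z) : (inl β a).g = 1 := rfl

theorem inl_injective : Function.Injective (inl β) := fun _ _ h => congrArg Tw.z h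

theorem mem_center_of_g {x : Tw β} (h1 : x.g ∈ center G) (h2 : ∀ y, β x.g y = β y x.g) :
    x ∈ center (Tw β) := by
  rw [mem_center_iff] at h1 ⊢
  intro y
  ext
  · simp only [mul_z, h2]; rw [mul_comm y.z]
  · exact h1 _

theorem proj_isCentralExt : IsCentralExt (proj β) := by
  refine ⟨fun g => ⟨⟨1, g⟩, rfl⟩, fun x hx => ?_⟩
  have : x.g = 1 := hx
  apply mem_center_of_g
  · rw [this]; exact one_mem _
  · intro y; rw [this]; simp

theorem commutator_eq {x y : Tw β} (h : x.g * y.g = y.g * x.g) :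
    ⁅x, y⁆ = inl β (β x.g y.g / β y.g x.g) := by
  have : x * y = inl β (β x.g y.g / β y.g x.g) * (y * x) := by
    ext
    · simp only [mul_z, inl_z, inl_g, map_one, MonoidHom.one_apply, mul_one]
      rw [mul_comm y.z, mul_comm (_ / _), mul_assoc (x.z * y.z), mul_div_cancel]
    · simp only [mul_g, inl_g, one_mul, h]
  rw [commutatorElement_def, this]; group

theorem inl_mem_mker {a b : G} (h : a * b = b * a) : inl β (β a b / β b a) ∈ mker (proj β) := by
  refine ⟨rfl, ?_⟩
  have := commutator_eq (β := β) (x := ⟨1, a⟩) (y := ⟨1, b⟩) h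
  rw [← this]
  exact commutator_mem_commutator (mem_top _) (mem_top _)

instance instFiniteTw [Finite G] [Finite Z] : Finite (Tw β) :=
  Finite.of_injective (fun x : Tw β => (x.z, x.g))
    (fun _ _ h => Tw.ext (congrArg Prod.fst h) (congrArg Prod.snd h))

end Tw

section Meta

theorem exists_surj_zmod_of_isCyclic {K : Type*} [Group K] [IsCyclic K] {N : ℕ}
    (h : Nat.card K ∣ N) : ∃ g : Multiplicative (ZMod N) →* K, Function.Surjective g := by
  let e := zmodCyclicMulEquiv (G := K) inferInstance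
  refine ⟨e.toMonoidHom.comp (AddMonoidHom.toMultiplicative
    (ZMod.castHom h (ZMod (Nat.card K))).toAddMonoidHom), e.surjective.comp ?_⟩
  exact ZMod.castHom_surjective h

theorem commutator_le_of_closure_pair {Γ : Type*} [Group Γ] {α β : Γ}
    (h : closure ({α, β} : Set Γ) = ⊤) (N : Subgroup Γ) [N.Normal] (hN : ⁅β, α⁆ ∈ N) :
    commutator Γ ≤ N := by
  have h1 : (β : Γ ⧸ N) * α = α * β := by
    rw [← commutatorElement_eq_one_iff_mul_comm]
    exact (QuotientGroup.eq_one_iff _).mpr hN
  have h2 : ∀ a : Γ, (∀ x ∈ ({α, β} : Set Γ), (a : Γ ⧸ N) * x = x * a) →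
      ∀ y : Γ, (a : Γ ⧸ N) * y = y * a := by
    intro a ha y
    have : closure ({α, β} : Set Γ) ≤ (centralizer {(a : Γ ⧸ N)}).comap (QuotientGroup.mk' N) := by
      rw [closure_le]
      intro x hx
      simp only [coe_comap, Set.mem_preimage, SetLike.mem_coe, mem_centralizer_singleton_iff]
      exact (ha x hx).symm
    rw [h] at this
    have := this (mem_top y)
    rw [mem_comap, mem_centralizer_singleton_iff] at this
    exact this.symm
  rw [_root_.commutator_def, commutator_le]
  intro x _ y _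
  rw [← QuotientGroup.eq_one_iff]
  show QuotientGroup.mk' N ⁅x, y⁆ = 1
  rw [map_commutatorElement, commutatorElement_eq_one_iff_mul_comm]
  apply h2
  intro w hw
  symm
  apply h2
  intro v hv
  rcases hw with rfl | rfl <;> rcases hv with rfl | rfl
  · rfl
  · exact h1.symm
  · exact h1
  · rfl

/-- Stem extensions of a metacyclic group. -/
theorem meta_stem {Γ G : Type*} [Group Γ] [Group G] [Finite Γ] {σ : Γ →* G}
    (hσ : Cfsg.IsStemExtension σ) {a b : G} (hgen : closure ({a, b} : Set G) = ⊤) {r : ℤ}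
    (hr : b * a * b⁻¹ = a ^ r) :
    IsCyclic σ.ker ∧ ∃ c : ℕ, c = Nat.card σ.ker * orderOf (a ^ (r - 1)) ∧
      (∀ m : ℤ, a ^ m = 1 → (c : ℤ) ∣ m) ∧
      (∀ (n : ℕ) (t : ℤ), b ^ n = a ^ t → (c : ℤ) ∣ t ∧ (c : ℤ) ∣ ∑ i ∈ Finset.range n, r ^ i) := by
  obtain ⟨α, rfl⟩ := hσ.1 a
  obtain ⟨β, rfl⟩ := hσ.1 b
  have hgen' : closure ({α, β} : Set Γ) = ⊤ := by
    have := surjective_of_over_stem hσ (closure ({α, β} : Set Γ)).subtype (by
      rw [← MonoidHom.range_eq_top, MonoidHom.range_comp, range_subtype, MonoidHom.map_closure,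
        Set.image_pair, hgen])
    rw [← MonoidHom.range_eq_top, range_subtype] at this
    exact this
  set γ := ⁅β, α⁆ with hγ
  have hσγ : σ γ = σ α ^ (r - 1) := by
    rw [hγ, map_commutatorElement, commutatorElement_def, hr, zpow_sub_one]
  have hk : (α ^ (r - 1))⁻¹ * γ ∈ center Γ := hσ.2.1 (by
    rw [MonoidHom.mem_ker, map_mul, map_inv, map_zpow, hσγ, inv_mul_cancel])
  set k := (α ^ (r - 1))⁻¹ * γ with hkdef
  have hγk : γ = α ^ (r - 1) * k := by rw [hkdef]; simp
  have hkc : ∀ g, Commute g k := mem_center_iff.mp hk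
  have hcomm : Commute γ α := by
    rw [hγk]
    exact Commute.mul_left (Commute.zpow_left (Commute.refl α) _) (hkc α).symm
  have hβα : β * α * β⁻¹ = γ * α := by rw [hγ, commutatorElement_def]; group
  have hβαj : ∀ j : ℤ, β * α ^ j * β⁻¹ = γ ^ j * α ^ j := by
    intro j
    rw [← conj_zpow, hβα, hcomm.mul_zpow]
  have hβγ : β * γ * β⁻¹ = γ ^ r := by
    calc β * γ * β⁻¹ = β * α ^ (r - 1) * β⁻¹ * k := by
          conv_lhs => rw [hγk]
          rw [mul_assoc, mul_assoc, ← (hkc β⁻¹).eq]; group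
      _ = γ ^ (r - 1) * γ := by rw [hβαj, mul_assoc, ← hγk]
      _ = γ ^ r := by group
  have hnorm : (zpowers γ).Normal := by
    rw [← normalizer_eq_top_iff, eq_top_iff, ← hgen', closure_le]
    rintro x (rfl | rfl)
    · apply mem_normalizer_fintype
      rintro _ ⟨j, rfl⟩
      refine ⟨j, ?_⟩
      show γ ^ j = x * γ ^ j * x⁻¹
      rw [← (hcomm.zpow_left j).eq]; simp
    · apply mem_normalizer_fintype
      rintro _ ⟨j, rfl⟩
      refine ⟨r * j, ?_⟩
      show γ ^ (r * j) = x * γ ^ j * x⁻¹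
      rw [← conj_zpow, hβγ, zpow_mul]
  have hle : commutator Γ ≤ zpowers γ :=
    commutator_le_of_closure_pair hgen' _ (mem_zpowers γ)
  have hkle : σ.ker ≤ zpowers γ := hσ.2.2.trans hle
  refine ⟨isCyclic_of_injective (inclusion hkle) (inclusion_injective hkle), orderOf γ, ?_, ?_, ?_⟩
  · rw [← hσγ, ← Nat.card_zpowers, ← Nat.card_zpowers, ← MonoidHom.map_zpowers,
      ← (σ.ker.subgroupOf (zpowers γ)).card_mul_index,
      Nat.card_congr (subgroupOfEquivOfLe hkle).toEquiv]
    congr 1
    exact relIndex_ker (zpowers γ) σ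
  · intro m hm
    rw [orderOf_dvd_iff_zpow_eq_one]
    have h1 : α ^ m ∈ center Γ := hσ.2.1 (by rw [MonoidHom.mem_ker, map_zpow, hm])
    have h2 := hβαj m
    rw [mem_center_iff.mp h1 β] at h2
    simpa using h2.symm
  · intro n t hn
    have h1 : (α ^ t)⁻¹ * β ^ n ∈ center Γ := hσ.2.1 (by
      rw [MonoidHom.mem_ker, map_mul, map_inv, map_zpow, map_pow, hn, inv_mul_cancel])
    set k' := (α ^ t)⁻¹ * β ^ n with hk'
    have h2 : β ^ n = α ^ t * k' := by rw [hk']; simp
    have hkc' : ∀ g, Commute g k' := mem_center_iff.mp h1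
    constructor
    · rw [orderOf_dvd_iff_zpow_eq_one]
      have h3 : α ^ t = β ^ n * k'⁻¹ := by rw [h2]; simp
      have h4 : Commute β (α ^ t) := by
        rw [h3]
        exact Commute.mul_right (Commute.pow_right (Commute.refl β) _) (hkc' β).inv_right
      have h5 := hβαj t
      rw [h4.eq] at h5
      simpa using h5.symm
    · rw [orderOf_dvd_iff_zpow_eq_one]
      have h3 : ∀ j : ℕ, β ^ j * α * (β ^ j)⁻¹ = γ ^ (∑ i ∈ Finset.range j, r ^ i) * α := by
        intro j
        induction j with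
        | zero => simp
        | succ j ih =>
          calc β ^ (j + 1) * α * (β ^ (j + 1))⁻¹ = β * (β ^ j * α * (β ^ j)⁻¹) * β⁻¹ := by
                rw [pow_succ']; group
            _ = (β * γ ^ (∑ i ∈ Finset.range j, r ^ i) * β⁻¹) * (β * α * β⁻¹) := by
                rw [ih]; group
            _ = _ := by
                rw [← conj_zpow, hβγ, hβα, geom_sum_succ, ← zpow_mul, zpow_add_one]; group
      have h4 : Commute (β ^ n) α := by
        rw [h2]
        exact Commute.mul_left (Commute.zpow_left (Commute.refl α) _) (hkc' α).symm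
      have h5 := h3 n
      rw [h4.eq] at h5
      simpa using h5.symm

end Meta

end Cfsg.Agent.H4
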